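import Cfsg.Agent.Lib.FGS.Comm
import Mathlib

/-!
The Lie ring `⨁ γ_i / γ_{i+1}` associated with the lower central series of a group,
with the operators induced by an automorphism.
-/

set_option autoImplicit false

namespace Cfsg.Agent.Lib.HigmanLie.AssocLie

open scoped commutatorElement DirectSum

universe u

variable (G : Type u) [Group G]

/-- the lower central series -/
abbrev gam (n : ℕ) : Subgroup G := (⊤ : Subgroup G).lowerCentralSeries n

variable {G}

lemma iter_eq (i k : ℕ) : Cfsg.Agent.Lib.FGS.Comm.iter (gam G i) k = gam G (i + k) := by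
  induction k with
  | zero => rfl
  | succ k ih =>
    rw [Cfsg.Agent.Lib.FGS.Comm.iter_succ, ih]
    rfl

lemma comm_mem {i j : ℕ} {g h : G} (hg : g ∈ gam G i) (hh : h ∈ gam G j) :
    ⁅g, h⁆ ∈ gam G (i + j + 1) := by
  have h1 := Cfsg.Agent.Lib.FGS.Comm.commutator_lcs_le j (gam G i)
    (Subgroup.commutator_mem_commutator hg hh)
  rw [iter_eq] at h1
  exact h1

lemma comm_top_mem {i : ℕ} {g : G} (hg : g ∈ gam G i) (x : G) : ⁅g, x⁆ ∈ gam G (i + 1) :=
  Subgroup.commutator_mem_commutator hg (Subgroup.mem_top x)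

lemma gam_succ_le (i : ℕ) : gam G (i + 1) ≤ gam G i :=
  Subgroup.lowerCentralSeries_antitone _ (Nat.le_succ i)

instance instNormalSubgroupOf (i : ℕ) : ((gam G (i + 1)).subgroupOf (gam G i)).Normal :=
  Subgroup.normal_subgroupOf

lemma quot_mul_comm {i : ℕ} (a b : ↥(gam G i) ⧸ (gam G (i + 1)).subgroupOf (gam G i)) :
    a * b = b * a := by
  obtain ⟨⟨g, hg⟩, rfl⟩ := QuotientGroup.mk_surjective a
  obtain ⟨⟨h, hh⟩, rfl⟩ := QuotientGroup.mk_surjective b
  rw [← QuotientGroup.mk_mul, ← QuotientGroup.mk_mul, QuotientGroup.eq, Subgroup.mem_subgroupOf]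
  have : (((⟨g, hg⟩ : gam G i) * ⟨h, hh⟩)⁻¹ * (⟨h, hh⟩ * ⟨g, hg⟩) : gam G i).1 = ⁅h⁻¹, g⁻¹⁆ := by
    simp only [Subgroup.coe_mul, Subgroup.coe_inv, commutatorElement_def]
    group
  rw [this]
  exact comm_top_mem (inv_mem hh) _

variable (G)

/-- the section `γ_i / γ_{i+1}` -/
def Q (i : ℕ) : Type u := ↥(gam G i) ⧸ (gam G (i + 1)).subgroupOf (gam G i)

instance instCommGroupQ (i : ℕ) : CommGroup (Q G i) :=
  { (QuotientGroup.Quotient.group _ : Group (↥(gam G i) ⧸ (gam G (i + 1)).subgroupOf (gam G i))) with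
    mul_comm := quot_mul_comm }

variable {G}

/-- class of an element -/
def Q.mk {i : ℕ} (g : G) (hg : g ∈ gam G i) : Q G i :=
  (QuotientGroup.mk (⟨g, hg⟩ : gam G i) : ↥(gam G i) ⧸ (gam G (i + 1)).subgroupOf (gam G i))

lemma Q.exists_mk {i : ℕ} (q : Q G i) : ∃ (g : G) (hg : g ∈ gam G i), Q.mk g hg = q := by
  obtain ⟨⟨g, hg⟩, h⟩ := QuotientGroup.mk_surjective
    (q : ↥(gam G i) ⧸ (gam G (i + 1)).subgroupOf (gam G i))
  exact ⟨g, hg, h⟩

lemma Q.mk_eq_mk {i : ℕ} {g g' : G} {hg : g ∈ gam G i} {hg' : g' ∈ gam G i} :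
    Q.mk g hg = Q.mk g' hg' ↔ g⁻¹ * g' ∈ gam G (i + 1) := by
  have := QuotientGroup.eq (s := (gam G (i + 1)).subgroupOf (gam G i)) (a := ⟨g, hg⟩) (b := ⟨g', hg'⟩)
  rw [Subgroup.mem_subgroupOf] at this
  exact this

lemma Q.mk_congr {i : ℕ} {g g' : G} (e : g = g') {hg : g ∈ gam G i} {hg' : g' ∈ gam G i} :
    Q.mk g hg = Q.mk g' hg' := by
  subst e; rfl

lemma Q.mk_mul {i : ℕ} {g g' : G} (hg : g ∈ gam G i) (hg' : g' ∈ gam G i) :
    Q.mk (g * g') (mul_mem hg hg') = Q.mk g hg * Q.mk g' hg' := rfl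

lemma Q.mk_one {i : ℕ} : Q.mk (1 : G) (one_mem (gam G i)) = 1 := rfl

lemma Q.mk_eq_one_iff {i : ℕ} {g : G} {hg : g ∈ gam G i} :
    Q.mk g hg = 1 ↔ g ∈ gam G (i + 1) := by
  rw [← Q.mk_one, Q.mk_eq_mk, mul_one, inv_mem_iff]

lemma Q.mk_inv {i : ℕ} {g : G} (hg : g ∈ gam G i) :
    Q.mk g⁻¹ (inv_mem hg) = (Q.mk g hg)⁻¹ := by
  rw [eq_inv_iff_mul_eq_one, ← Q.mk_mul, ← Q.mk_one]
  exact Q.mk_congr (by group)

lemma Q.mk_conj {i : ℕ} (x : G) {c : G} (hc : c ∈ gam G i)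
    (h' : x * c * x⁻¹ ∈ gam G i := (Subgroup.Normal.conj_mem inferInstance c hc x)) :
    Q.mk (x * c * x⁻¹) h' = Q.mk c hc := by
  rw [Q.mk_eq_mk]
  have e : (x * c * x⁻¹)⁻¹ * c = ⁅c⁻¹, x⁆⁻¹ := by
    simp only [commutatorElement_def]
    group
  rw [e]
  exact inv_mem (comm_top_mem (inv_mem hc) x)

lemma mem_of_succ {i j : ℕ} {g h : G} (hg : g ∈ gam G (i + 1)) (hh : h ∈ gam G j) :
    ⁅g, h⁆ ∈ gam G (i + j + 1 + 1) := by
  have := comm_mem hg hh
  rwa [show i + 1 + j + 1 = i + j + 1 + 1 by omega] at this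

lemma mem_of_succ' {i j : ℕ} {g h : G} (hg : g ∈ gam G i) (hh : h ∈ gam G (j + 1)) :
    ⁅g, h⁆ ∈ gam G (i + j + 1 + 1) := comm_mem (j := j + 1) hg hh

lemma mk_comm_mul_left {i j : ℕ} {g g' h : G} (hg : g ∈ gam G i) (hg' : g' ∈ gam G i)
    (hh : h ∈ gam G j) :
    Q.mk ⁅g * g', h⁆ (comm_mem (mul_mem hg hg') hh)
      = Q.mk ⁅g, h⁆ (comm_mem hg hh) * Q.mk ⁅g', h⁆ (comm_mem hg' hh) := by
  have e : ⁅g * g', h⁆ = (g * ⁅g', h⁆ * g⁻¹) * ⁅g, h⁆ := by
    simp only [commutatorElement_def]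
    group
  have h1 : g * ⁅g', h⁆ * g⁻¹ ∈ gam G (i + j + 1) :=
    Subgroup.Normal.conj_mem inferInstance _ (comm_mem hg' hh) g
  rw [Q.mk_congr e (hg' := mul_mem h1 (comm_mem hg hh)), Q.mk_mul h1 (comm_mem hg hh),
    Q.mk_conj g (comm_mem hg' hh) h1, mul_comm]

lemma mk_comm_mul_right {i j : ℕ} {g h h' : G} (hg : g ∈ gam G i) (hh : h ∈ gam G j)
    (hh' : h' ∈ gam G j) :
    Q.mk ⁅g, h * h'⁆ (comm_mem hg (mul_mem hh hh'))
      = Q.mk ⁅g, h⁆ (comm_mem hg hh) * Q.mk ⁅g, h'⁆ (comm_mem hg hh') := by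
  have e : ⁅g, h * h'⁆ = ⁅g, h⁆ * (h * ⁅g, h'⁆ * h⁻¹) := by
    simp only [commutatorElement_def]
    group
  have h1 : h * ⁅g, h'⁆ * h⁻¹ ∈ gam G (i + j + 1) :=
    Subgroup.Normal.conj_mem inferInstance _ (comm_mem hg hh') h
  rw [Q.mk_congr e (hg' := mul_mem (comm_mem hg hh) h1), Q.mk_mul (comm_mem hg hh) h1,
    Q.mk_conj h (comm_mem hg hh') h1]

/-- the bracket on sections -/
def bra {i j : ℕ} (a : Q G i) (b : Q G j) : Q G (i + j + 1) :=
  Quotient.liftOn₂' (s₁ := QuotientGroup.leftRel ((gam G (i + 1)).subgroupOf (gam G i)))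
    (s₂ := QuotientGroup.leftRel ((gam G (j + 1)).subgroupOf (gam G j))) a b
    (fun g h => Q.mk ⁅(g : G), (h : G)⁆ (comm_mem g.2 h.2)) (by
      rintro ⟨g, hg⟩ ⟨h, hh⟩ ⟨g', hg'⟩ ⟨h', hh'⟩ h₁ h₂
      rw [QuotientGroup.leftRel_apply, Subgroup.mem_subgroupOf] at h₁ h₂
      change Q.mk ⁅g, h⁆ _ = Q.mk ⁅g', h'⁆ _
      change g⁻¹ * g' ∈ gam G (i + 1) at h₁
      change h⁻¹ * h' ∈ gam G (j + 1) at h₂
      have e₁ : g' = g * (g⁻¹ * g') := by group
      have e₂ : h' = h * (h⁻¹ * h') := by group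
      have hn := gam_succ_le i h₁
      have hn' := gam_succ_le j h₂
      have s1 : Q.mk ⁅g', h'⁆ (comm_mem hg' hh')
          = Q.mk ⁅g * (g⁻¹ * g'), h * (h⁻¹ * h')⁆
            (comm_mem (mul_mem hg hn) (mul_mem hh hn')) :=
        Q.mk_congr (by rw [← e₁, ← e₂])
      rw [s1, mk_comm_mul_left hg hn (mul_mem hh hn'), mk_comm_mul_right hg hh hn',
        (Q.mk_eq_one_iff (g := ⁅g, h⁻¹ * h'⁆)).mpr (mem_of_succ' hg h₂),
        (Q.mk_eq_one_iff (g := ⁅g⁻¹ * g', h * (h⁻¹ * h')⁆)).mpr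
          (mem_of_succ h₁ (mul_mem hh hn'))]
      simp)

@[simp] lemma bra_mk {i j : ℕ} {g h : G} (hg : g ∈ gam G i) (hh : h ∈ gam G j) :
    bra (Q.mk g hg) (Q.mk h hh) = Q.mk ⁅g, h⁆ (comm_mem hg hh) := rfl

lemma bra_mul_left {i j : ℕ} (a a' : Q G i) (b : Q G j) : bra (a * a') b = bra a b * bra a' b := by
  obtain ⟨g, hg, rfl⟩ := Q.exists_mk a
  obtain ⟨g', hg', rfl⟩ := Q.exists_mk a'
  obtain ⟨h, hh, rfl⟩ := Q.exists_mk b
  rw [← Q.mk_mul]
  exact mk_comm_mul_left hg hg' hh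

lemma bra_mul_right {i j : ℕ} (a : Q G i) (b b' : Q G j) : bra a (b * b') = bra a b * bra a b' := by
  obtain ⟨g, hg, rfl⟩ := Q.exists_mk a
  obtain ⟨h, hh, rfl⟩ := Q.exists_mk b
  obtain ⟨h', hh', rfl⟩ := Q.exists_mk b'
  rw [← Q.mk_mul]
  exact mk_comm_mul_right hg hh hh'

variable (G)

/-- the additive sections -/
abbrev A (i : ℕ) : Type u := Additive (Q G i)

/-- the associated Lie ring, as an additive group -/
abbrev LL : Type u := ⨁ i : ℕ, A G i

variable {G}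

/-- bracket with a fixed left element, in additive form -/
def braR {i j : ℕ} (a : A G i) : A G j →+ A G (i + j + 1) :=
  AddMonoidHom.mk' (fun b => Additive.ofMul (bra a.toMul b.toMul)) (by
    intro b b'
    change Additive.ofMul (bra a.toMul (b.toMul * b'.toMul)) = _
    rw [bra_mul_right]
    rfl)

/-- the bracket on `LL` for a fixed homogeneous left entry -/
def brLi (i : ℕ) : A G i →+ (LL G →+ LL G) :=
  AddMonoidHom.mk'
    (fun a => DirectSum.toAddMonoid fun j => (DirectSum.of (fun k => A G k) (i + j + 1)).comp (braR a))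
    (by
      intro a a'
      refine DirectSum.addHom_ext fun j b => ?_
      simp only [DirectSum.toAddMonoid_of, AddMonoidHom.comp_apply, AddMonoidHom.add_apply]
      rw [← map_add]
      congr 1
      change Additive.ofMul (bra (a.toMul * a'.toMul) b.toMul) = _
      rw [bra_mul_left]
      rfl)

/-- the bracket on `LL` -/
def brL : LL G →+ (LL G →+ LL G) := DirectSum.toAddMonoid brLi

/-- image of an element of `γ_i` in `LL` -/
def ι (i : ℕ) (g : G) (hg : g ∈ gam G i) : LL G :=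
  DirectSum.of (fun k => A G k) i (Additive.ofMul (Q.mk g hg))

lemma brL_ι {i j : ℕ} {g h : G} (hg : g ∈ gam G i) (hh : h ∈ gam G j) :
    brL (ι i g hg) (ι j h hh) = ι (i + j + 1) ⁅g, h⁆ (comm_mem hg hh) := by
  unfold brL ι
  rw [DirectSum.toAddMonoid_of]
  simp only [brLi, AddMonoidHom.mk'_apply, DirectSum.toAddMonoid_of, AddMonoidHom.comp_apply]
  rfl

lemma ι_congr {i i' : ℕ} (e : i = i') {g g' : G} (eg : g = g') {hg : g ∈ gam G i}
    {hg' : g' ∈ gam G i'} : ι i g hg = ι i' g' hg' := by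
  subst e; subst eg; rfl

lemma ι_mul {i : ℕ} {g h : G} (hg : g ∈ gam G i) (hh : h ∈ gam G i) :
    ι i (g * h) (mul_mem hg hh) = ι i g hg + ι i h hh := by
  unfold ι
  rw [← map_add]
  rfl

lemma ι_one {i : ℕ} : ι i (1 : G) (one_mem _) = 0 := by
  unfold ι
  rw [Q.mk_one]
  exact map_zero _

lemma ι_inv {i : ℕ} {g : G} (hg : g ∈ gam G i) : ι i g⁻¹ (inv_mem hg) = -ι i g hg := by
  rw [eq_neg_iff_add_eq_zero, ← ι_mul, ← ι_one (i := i)]
  exact ι_congr rfl (by group)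

lemma ι_pow {i : ℕ} {g : G} (hg : g ∈ gam G i) (n : ℕ) :
    ι i (g ^ n) (pow_mem hg n) = n • ι i g hg := by
  induction n with
  | zero =>
    simp only [pow_zero, zero_smul]
    exact ι_one
  | succ n ih =>
    rw [succ_nsmul, ← ih, ← ι_mul]
    exact ι_congr rfl (pow_succ g n)

lemma ι_conj {i : ℕ} (x : G) {g : G} (hg : g ∈ gam G i) (h' : x * g * x⁻¹ ∈ gam G i) :
    ι i (x * g * x⁻¹) h' = ι i g hg := by
  unfold ι
  rw [Q.mk_conj x hg h']

lemma ι_eq_zero {i : ℕ} {g : G} {hg : g ∈ gam G i} (h : ι i g hg = 0) : g ∈ gam G (i + 1) := by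
  unfold ι at h
  have h1 := DirectSum.of_injective (β := fun k => A G k) i (a₁ := Additive.ofMul (Q.mk g hg)) (a₂ := 0)
    (by rw [h, map_zero])
  exact Q.mk_eq_one_iff.mp (Additive.ofMul.injective h1)

theorem LL_induction {P : LL G → Prop} (h0 : P 0)
    (hι : ∀ (i : ℕ) (g : G) (hg : g ∈ gam G i), P (ι i g hg))
    (hadd : ∀ x y, P x → P y → P (x + y)) (x : LL G) : P x := by
  refine DirectSum.induction_on x h0 ?_ hadd
  intro i a
  obtain ⟨g, hg, h⟩ := Q.exists_mk a.toMul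
  have : a = Additive.ofMul (Q.mk g hg) := by rw [h]; rfl
  rw [this]
  exact hι i g hg

lemma br_anti (x y : LL G) : brL x y = -brL y x := by
  induction x using LL_induction with
  | h0 => simp
  | hadd x x' h₁ h₂ =>
    simp only [map_add, AddMonoidHom.add_apply, h₁, h₂, neg_add_rev]
    abel
  | hι i g hg =>
    induction y using LL_induction with
    | h0 => simp
    | hadd y y' h₁ h₂ =>
      simp only [map_add, AddMonoidHom.add_apply, h₁, h₂, neg_add_rev]
      abel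
    | hι j h hh =>
      rw [brL_ι, brL_ι, ← ι_inv]
      refine ι_congr (by omega) ?_
      rw [commutatorElement_inv]

lemma br_self (x : LL G) : brL x x = 0 := by
  induction x using LL_induction with
  | h0 => simp
  | hadd x y h₁ h₂ =>
    simp only [map_add, AddMonoidHom.add_apply, h₁, h₂, zero_add, add_zero]
    rw [br_anti y x]
    simp
  | hι i g hg =>
    rw [brL_ι, ← ι_one (i := i + i + 1)]
    exact ι_congr rfl (commutatorElement_self g)

lemma ι_br_inv {i j : ℕ} {g h : G} (hg : g ∈ gam G i) (hh : h ∈ gam G j) :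
    brL (ι i g⁻¹ (inv_mem hg)) (ι j h hh) = brL (ι j h hh) (ι i g hg) := by
  rw [ι_inv hg, map_neg, AddMonoidHom.neg_apply, br_anti]
  simp

/-- Hall-Witt in the ring -/
lemma cyc_ι {i j k : ℕ} {x y z : G} (hx : x ∈ gam G i) (hy : y ∈ gam G j) (hz : z ∈ gam G k) :
    brL (brL (ι i x hx) (ι j y hy)) (ι k z hz) + brL (brL (ι j y hy) (ι k z hz)) (ι i x hx)
      + brL (brL (ι k z hz) (ι i x hx)) (ι j y hy) = 0 := by
  have hw : (y * ⁅⁅y⁻¹, x⁆, z⁆ * y⁻¹) * (z * ⁅⁅z⁻¹, y⁆, x⁆ * z⁻¹) * (x * ⁅⁅x⁻¹, z⁆, y⁆ * x⁻¹) = 1 := by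
    simp only [commutatorElement_def]
    group
  set m := i + j + k + 2 with hm
  have h₁ : ⁅⁅y⁻¹, x⁆, z⁆ ∈ gam G m := by
    have := comm_mem (comm_mem (inv_mem hy) hx) hz
    rwa [show j + i + 1 + k + 1 = m by omega] at this
  have h₂ : ⁅⁅z⁻¹, y⁆, x⁆ ∈ gam G m := by
    have := comm_mem (comm_mem (inv_mem hz) hy) hx
    rwa [show k + j + 1 + i + 1 = m by omega] at this
  have h₃ : ⁅⁅x⁻¹, z⁆, y⁆ ∈ gam G m := by
    have := comm_mem (comm_mem (inv_mem hx) hz) hy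
    rwa [show i + k + 1 + j + 1 = m by omega] at this
  have c₁ : y * ⁅⁅y⁻¹, x⁆, z⁆ * y⁻¹ ∈ gam G m := Subgroup.Normal.conj_mem inferInstance _ h₁ y
  have c₂ : z * ⁅⁅z⁻¹, y⁆, x⁆ * z⁻¹ ∈ gam G m := Subgroup.Normal.conj_mem inferInstance _ h₂ z
  have c₃ : x * ⁅⁅x⁻¹, z⁆, y⁆ * x⁻¹ ∈ gam G m := Subgroup.Normal.conj_mem inferInstance _ h₃ x
  have e0 : ι m ((y * ⁅⁅y⁻¹, x⁆, z⁆ * y⁻¹) * (z * ⁅⁅z⁻¹, y⁆, x⁆ * z⁻¹) * (x * ⁅⁅x⁻¹, z⁆, y⁆ * x⁻¹))
      (mul_mem (mul_mem c₁ c₂) c₃) = 0 := by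
    rw [← ι_one (i := m)]
    exact ι_congr rfl hw
  rw [ι_mul (mul_mem c₁ c₂) c₃, ι_mul c₁ c₂, ι_conj y h₁ c₁, ι_conj z h₂ c₂, ι_conj x h₃ c₃] at e0
  have t₁ : ι m ⁅⁅y⁻¹, x⁆, z⁆ h₁ = brL (brL (ι i x hx) (ι j y hy)) (ι k z hz) := by
    rw [← ι_br_inv hy hx, brL_ι (inv_mem hy) hx, brL_ι (comm_mem (inv_mem hy) hx) hz]
    exact ι_congr (by omega) rfl
  have t₂ : ι m ⁅⁅z⁻¹, y⁆, x⁆ h₂ = brL (brL (ι j y hy) (ι k z hz)) (ι i x hx) := by
    rw [← ι_br_inv hz hy, brL_ι (inv_mem hz) hy, brL_ι (comm_mem (inv_mem hz) hy) hx]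
    exact ι_congr (by omega) rfl
  have t₃ : ι m ⁅⁅x⁻¹, z⁆, y⁆ h₃ = brL (brL (ι k z hz) (ι i x hx)) (ι j y hy) := by
    rw [← ι_br_inv hx hz, brL_ι (inv_mem hx) hz, brL_ι (comm_mem (inv_mem hx) hz) hy]
    exact ι_congr (by omega) rfl
  rw [t₁, t₂, t₃] at e0
  exact e0

lemma cyc (x y z : LL G) :
    brL (brL x y) z + brL (brL y z) x + brL (brL z x) y = 0 := by
  induction x using LL_induction with
  | h0 => simp
  | hadd x x' h₁ h₂ =>
    simp only [map_add, AddMonoidHom.add_apply]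
    calc _ = (brL (brL x y) z + brL (brL y z) x + brL (brL z x) y)
          + (brL (brL x' y) z + brL (brL y z) x' + brL (brL z x') y) := by abel
      _ = 0 := by rw [h₁, h₂, add_zero]
  | hι i g hg =>
    induction y using LL_induction with
    | h0 => simp
    | hadd y y' h₁ h₂ =>
      simp only [map_add, AddMonoidHom.add_apply]
      calc _ = (brL (brL (ι i g hg) y) z + brL (brL y z) (ι i g hg) + brL (brL z (ι i g hg)) y)
            + (brL (brL (ι i g hg) y') z + brL (brL y' z) (ι i g hg) + brL (brL z (ι i g hg)) y') := by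
              abel
        _ = 0 := by rw [h₁, h₂, add_zero]
    | hι j h hh =>
      induction z using LL_induction with
      | h0 => simp
      | hadd z z' h₁ h₂ =>
        simp only [map_add, AddMonoidHom.add_apply]
        calc _ = (brL (brL (ι i g hg) (ι j h hh)) z + brL (brL (ι j h hh) z) (ι i g hg)
                  + brL (brL z (ι i g hg)) (ι j h hh))
              + (brL (brL (ι i g hg) (ι j h hh)) z' + brL (brL (ι j h hh) z') (ι i g hg)
                  + brL (brL z' (ι i g hg)) (ι j h hh)) := by abel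
          _ = 0 := by rw [h₁, h₂, add_zero]
      | hι k c hc => exact cyc_ι hg hh hc

instance instLieRingLL : LieRing (LL G) :=
  { (inferInstance : AddCommGroup (LL G)) with
    bracket := fun x y => brL x y
    add_lie := fun x y z => by
      change brL (x + y) z = brL x z + brL y z
      simp
    lie_add := fun x y z => by
      change brL x (y + z) = brL x y + brL x z
      simp
    lie_self := fun x => br_self x
    leibniz_lie := fun x y z => by
      change brL x (brL y z) = brL (brL x y) z + brL y (brL x z)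
      have h := cyc x y z
      have e1 : brL x (brL y z) = -brL (brL y z) x := br_anti _ _
      have e2 : brL y (brL x z) = -brL (brL x z) y := br_anti _ _
      have e3 : brL (brL x z) y = -brL (brL z x) y := by
        rw [br_anti x z]; simp
      rw [e1, e2, e3, neg_neg]
      have e4 : brL (brL x y) z + brL (brL z x) y = -brL (brL y z) x := by
        rw [eq_neg_iff_add_eq_zero, ← h]
        abel
      exact e4.symm }

lemma lie_eq (x y : LL G) : ⁅x, y⁆ = brL x y := rfl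

lemma lie_ι {i j : ℕ} {g h : G} (hg : g ∈ gam G i) (hh : h ∈ gam G j) :
    ⁅ι i g hg, ι j h hh⁆ = ι (i + j + 1) ⁅g, h⁆ (comm_mem hg hh) := brL_ι hg hh

/-! ### Automorphisms -/

lemma aut_mem (α : G ≃* G) {i : ℕ} {g : G} (hg : g ∈ gam G i) : α g ∈ gam G i := by
  have h : (gam G i).Characteristic := inferInstance
  have h2 := h.fixed α
  rw [← h2] at hg
  exact hg

/-- the automorphism on `γ_i` -/
def αγ (α : G ≃* G) (i : ℕ) : gam G i →* gam G i :=
  ((α : G →* G).comp (gam G i).subtype).codRestrict (gam G i) (fun x => aut_mem α x.2)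

/-- the automorphism on a section -/
def αQ (α : G ≃* G) (i : ℕ) : (↥(gam G i) ⧸ (gam G (i + 1)).subgroupOf (gam G i)) →*
    (↥(gam G i) ⧸ (gam G (i + 1)).subgroupOf (gam G i)) :=
  QuotientGroup.map _ _ (αγ α i) (by
    intro x hx
    simp only [Subgroup.mem_comap, Subgroup.mem_subgroupOf] at hx ⊢
    exact aut_mem α hx)

/-- the automorphism on an additive section -/
def αA (α : G ≃* G) (i : ℕ) : A G i →+ A G i :=
  AddMonoidHom.mk' (fun a => Additive.ofMul (αQ α i a.toMul))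
    (fun a b => map_mul (αQ α i) a.toMul b.toMul)

lemma αA_mk (α : G ≃* G) {i : ℕ} {g : G} (hg : g ∈ gam G i) :
    αA α i (Additive.ofMul (Q.mk g hg)) = Additive.ofMul (Q.mk (α g) (aut_mem α hg)) := rfl

/-- the automorphism on `LL` -/
def αL (α : G ≃* G) : LL G →+ LL G := DFinsupp.mapRange.addMonoidHom (fun i => αA α i)

lemma αL_apply (α : G ≃* G) (x : LL G) (i : ℕ) : αL α x i = αA α i (x i) :=
  DFinsupp.mapRange_apply (fun i => αA α i) (fun i => map_zero _) _ _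

lemma αL_ι (α : G ≃* G) {i : ℕ} {g : G} (hg : g ∈ gam G i) :
    αL α (ι i g hg) = ι i (α g) (aut_mem α hg) := by
  unfold αL ι
  exact DFinsupp.mapRange_single (f := fun i => αA α i) (hf := fun i => map_zero _)

lemma αL_lie (α : G ≃* G) (x y : LL G) : αL α ⁅x, y⁆ = ⁅αL α x, αL α y⁆ := by
  induction x using LL_induction with
  | h0 => simp
  | hadd x x' h₁ h₂ =>
    simp only [add_lie, map_add, h₁, h₂]
  | hι i g hg =>
    induction y using LL_induction with
    | h0 => simp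
    | hadd y y' h₁ h₂ =>
      simp only [lie_add, map_add, h₁, h₂]
    | hι j h hh =>
      rw [lie_ι, αL_ι, αL_ι, αL_ι, lie_ι]
      exact ι_congr rfl (map_commutatorElement α g h)

lemma αL_iterate_ι (α : MulAut G) (n : ℕ) {i : ℕ} {g : G} (hg : g ∈ gam G i) :
    (αL α)^[n] (ι i g hg) = ι i ((α ^ n) g) (aut_mem (α ^ n) hg) := by
  induction n with
  | zero => rfl
  | succ n ih =>
    rw [Function.iterate_succ_apply', ih, αL_ι]
    exact ι_congr rfl (by rw [pow_succ']; rfl)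

lemma αL_iterate (α : MulAut G) {n : ℕ} (hn : α ^ n = 1) (x : LL G) : (αL α)^[n] x = x := by
  induction x using LL_induction with
  | h0 => exact iterate_map_zero _ _
  | hadd x y h₁ h₂ => rw [iterate_map_add, h₁, h₂]
  | hι i g hg =>
    rw [αL_iterate_ι]
    exact ι_congr rfl (by rw [hn]; rfl)

lemma exists_fix_mul [Finite G] (α : G ≃* G) (hfix : ∀ g : G, α g = g → g = 1) (N : Subgroup G)
    (hN : ∀ n ∈ N, α n ∈ N) {c : G} (hc : c ∈ N) : ∃ n ∈ N, c = n * (α n)⁻¹ := by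
  let φ : N → N := fun n => ⟨n.1 * (α n.1)⁻¹, mul_mem n.2 (inv_mem (hN _ n.2))⟩
  have hφ : Function.Injective φ := by
    rintro ⟨n, hn⟩ ⟨m, hm⟩ h
    have h1 : n * (α n)⁻¹ = m * (α m)⁻¹ := congrArg Subtype.val h
    have h2 : α (m⁻¹ * n) = m⁻¹ * n := by
      rw [map_mul, map_inv]
      have h3 : m⁻¹ * n = (α m)⁻¹ * α n := by
        have : n = m * (α m)⁻¹ * α n := by rw [← h1]; group
        calc m⁻¹ * n = m⁻¹ * (m * (α m)⁻¹ * α n) := by rw [← this]
          _ = (α m)⁻¹ * α n := by group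
      exact h3.symm
    have h4 := hfix _ h2
    have h5 : n = m := by
      have : m * (m⁻¹ * n) = m := by rw [h4, mul_one]
      simpa using this
    exact Subtype.ext h5
  obtain ⟨⟨n, hn⟩, h⟩ := (Finite.injective_iff_surjective.mp hφ) ⟨c, hc⟩
  exact ⟨n, hn, (congrArg Subtype.val h).symm⟩

lemma αL_fix [Finite G] (α : G ≃* G) (hfix : ∀ g : G, α g = g → g = 1) (x : LL G)
    (hx : αL α x = x) : x = 0 := by
  refine DFinsupp.ext fun i => ?_
  have h1 : αA α i (x i) = x i := by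
    rw [← αL_apply, hx]
  obtain ⟨g, hg, h2⟩ := Q.exists_mk (Additive.toMul (x i))
  have h3 : x i = Additive.ofMul (Q.mk g hg) := by rw [h2]; rfl
  rw [h3, αA_mk] at h1
  have h4 : Q.mk (α g) (aut_mem α hg) = Q.mk g hg := Additive.ofMul.injective h1
  rw [Q.mk_eq_mk] at h4
  have h5 : g⁻¹ * α g ∈ gam G (i + 1) := by
    have := inv_mem h4
    simpa using this
  obtain ⟨n, hn, h6⟩ := exists_fix_mul α hfix (gam G (i + 1)) (fun _ h => aut_mem α h) h5
  have h7 : α (g * n) = g * n := by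
    rw [map_mul]
    have : α g = g * (n * (α n)⁻¹) := by rw [← h6]; group
    rw [this]
    group
  have h8 := hfix _ h7
  have h9 : g ∈ gam G (i + 1) := by
    have : g = n⁻¹ := eq_inv_of_mul_eq_one_left h8
    rw [this]
    exact inv_mem hn
  rw [h3, Q.mk_eq_one_iff.mpr h9]
  rfl

lemma card_smul_LL [Finite G] (x : LL G) : Nat.card G • x = 0 := by
  induction x using LL_induction with
  | h0 => simp
  | hadd x y h₁ h₂ => rw [smul_add, h₁, h₂, add_zero]
  | hι i g hg =>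
    rw [← ι_pow, ← ι_one (i := i)]
    exact ι_congr rfl (pow_card_eq_one')

/-- the global lower central series of a Lie ring -/
def lcsL (L : Type*) [LieRing L] : ℕ → AddSubgroup L
  | 0 => ⊤
  | n + 1 => AddSubgroup.closure {z | ∃ x ∈ lcsL L n, ∃ y : L, z = ⁅x, y⁆}

lemma ι_mem_lcsL (n : ℕ) : ∀ (g : G) (hg : g ∈ gam G n), ι n g hg ∈ lcsL (LL G) n := by
  induction n with
  | zero =>
    intro g hg
    exact AddSubgroup.mem_top _
  | succ n ih =>
    intro g hg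
    have hg' : g ∈ ⁅gam G n, (⊤ : Subgroup G)⁆ := hg
    rw [Subgroup.commutator_def] at hg'
    refine Subgroup.closure_induction (p := fun g hg => ∀ h' : g ∈ gam G (n + 1), ι (n + 1) g h' ∈ lcsL (LL G) (n + 1))
      ?_ ?_ ?_ ?_ hg' hg
    · rintro _ ⟨a, ha, b, -, rfl⟩ h'
      have hb : b ∈ gam G 0 := Subgroup.mem_top b
      have h1 : ι (n + 1) ⁅a, b⁆ h' = ⁅ι n a ha, ι 0 b hb⁆ := by
        rw [lie_ι]
      rw [h1]
      exact AddSubgroup.subset_closure ⟨_, ih a ha, _, rfl⟩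
    · intro h'
      have : ι (n + 1) (1 : G) h' = 0 := ι_one
      rw [this]
      exact zero_mem _
    · intro x y _ _ h₁ h₂ h'
      have hx : x ∈ gam G (n + 1) := by assumption
      have hy : y ∈ gam G (n + 1) := by assumption
      rw [ι_mul hx hy]
      exact add_mem (h₁ hx) (h₂ hy)
    · intro x _ h₁ h'
      have hx : x ∈ gam G (n + 1) := by assumption
      rw [ι_inv hx]
      exact neg_mem (h₁ hx)

/-- a nilpotent group whose associated Lie ring has class `≤ n` has class `≤ n`. -/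
theorem lcs_eq_bot_of_lcsL {n : ℕ} (hnil : Group.IsNilpotent G) (h : lcsL (LL G) n = ⊥) :
    gam G n = ⊥ := by
  have hle : gam G n ≤ gam G (n + 1) := by
    intro g hg
    have := ι_mem_lcsL n g hg
    rw [h, AddSubgroup.mem_bot] at this
    exact ι_eq_zero this
  have hall : ∀ k, gam G n ≤ gam G (n + k) := by
    intro k
    induction k with
    | zero => exact le_rfl
    | succ k ih =>
      have h2 : ⁅gam G n, (⊤ : Subgroup G)⁆ ≤ ⁅gam G (n + k), (⊤ : Subgroup G)⁆ :=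
        Subgroup.commutator_mono ih le_rfl
      exact hle.trans h2
  obtain ⟨k, hk⟩ := Subgroup.nilpotent_iff_lowerCentralSeries.mp hnil
  refine le_antisymm ?_ bot_le
  calc gam G n ≤ gam G (n + k) := hall k
    _ ≤ gam G k := Subgroup.lowerCentralSeries_antitone _ (Nat.le_add_left k n)
    _ = ⊥ := hk

end Cfsg.Agent.Lib.HigmanLie.AssocLie
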