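import Cfsg.Agent.Lib.HigmanLie.Graded

/-!
Higman's step: for a `ZMod p`-graded Lie ring with trivial zero component,
if `γ_{c+1}` is abelian (modulo an ideal `N`) then `γ_{(p-1)c+2} ≤ N`.  Consequently a graded
ring of derived length `n` has class at most `1 + (p-1) + ... + (p-1)^(n-1)`.
-/

set_option autoImplicit false

namespace Cfsg.Agent.Lib.HigmanLie.Class

open Cfsg.Agent.Lib.HigmanLie.Graded

variable {L : Type*} [LieRing L] {p : ℕ}

lemma brk_mono_left {H H' K : Fam L p} (h : ∀ i, H i ≤ H' i) (i : ZMod p) :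
    brk H K i ≤ brk H' K i := by
  refine AddSubgroup.closure_mono ?_
  rintro z ⟨a, b, hab, x, hx, y, hy, rfl⟩
  exact ⟨a, b, hab, x, h _ hx, y, hy, rfl⟩

lemma lcs_succ_le {F : Fam L p} (hF : IsGr F) : ∀ k i, lcs F (k + 1) i ≤ lcs F k i
  | 0, i => hF.brk_le i
  | k + 1, i => brk_mono_left (fun j => lcs_succ_le hF k j) i

lemma lcs_anti {F : Fam L p} (hF : IsGr F) {k m : ℕ} (h : k ≤ m) (i : ZMod p) :
    lcs F m i ≤ lcs F k i := by
  induction m, h using Nat.le_induction with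
  | base => exact le_rfl
  | succ m _ ih => exact (lcs_succ_le hF m i).trans ih

lemma lcs_le {F : Fam L p} (hF : IsGr F) (k : ℕ) (i : ZMod p) : lcs F k i ≤ F i :=
  lcs_anti hF (Nat.zero_le k) i

lemma lie_lcs_lcs {F : Fam L p} (hF : IsGr F) : ∀ (l k : ℕ) (a b : ZMod p) (x y : L),
    x ∈ lcs F k a → y ∈ lcs F l b → ⁅x, y⁆ ∈ lcs F (k + l + 1) (a + b) := by
  intro l
  induction l with
  | zero =>
    intro k a b x y hx hy
    exact lie_mem_brk hx hy
  | succ l ih =>
    intro k a b x y hx hy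
    change y ∈ brk (lcs F l) F b at hy
    refine AddSubgroup.closure_induction
      (p := fun y _ => ⁅x, y⁆ ∈ lcs F (k + (l + 1) + 1) (a + b)) ?_ ?_ ?_ ?_ hy
    · rintro w ⟨b₁, b₂, hb, u, hu, v, hv, rfl⟩
      have e1 : ⁅x, ⁅u, v⁆⁆ = ⁅⁅x, u⁆, v⁆ + -⁅⁅x, v⁆, u⁆ := by
        rw [leibniz_lie x u v, lie_skew]
      rw [e1]
      refine add_mem ?_ (neg_mem ?_)
      · have h1 : ⁅x, u⁆ ∈ lcs F (k + l + 1) (a + b₁) := ih k a b₁ x u hx hu
        have h2 : ⁅⁅x, u⁆, v⁆ ∈ lcs F (k + l + 1 + 1) (a + b₁ + b₂) := lie_mem_brk h1 hv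
        have e2 : a + b₁ + b₂ = a + b := by rw [add_assoc, hb]
        rw [e2] at h2
        exact h2
      · have h1 : ⁅x, v⁆ ∈ lcs F (k + 1) (a + b₂) := lie_mem_brk hx hv
        have h2 := ih (k + 1) (a + b₂) b₁ _ u h1 hu
        have e2 : a + b₂ + b₁ = a + b := by rw [add_right_comm, add_assoc, hb]
        have e3 : k + 1 + l + 1 = k + (l + 1) + 1 := by omega
        rw [e2, e3] at h2
        exact h2
    · rw [lie_zero]; exact zero_mem _
    · intro _ _ _ _ h₁ h₂
      rw [lie_add]; exact add_mem h₁ h₂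
    · intro _ _ h₁
      rw [lie_neg]; exact neg_mem h₁

/-- an operator with degree `d`, weight `k + 1` -/
structure Op (L : Type*) (p : ℕ) where
  d : ZMod p
  k : ℕ
  x : L

/-- iterated bracket -/
def mono (a : L) (xs : List (Op L p)) : L := xs.foldl (fun b o => ⁅b, o.x⁆) a

/-- validity of operators -/
def Valid (F : Fam L p) (xs : List (Op L p)) : Prop := ∀ o ∈ xs, o.x ∈ lcs F o.k o.d

/-- total weight -/
def wt (xs : List (Op L p)) : ℕ := (xs.map (fun o => o.k + 1)).sum

/-- total degree -/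
def dsum (xs : List (Op L p)) : ZMod p := (xs.map Op.d).sum

@[simp] lemma mono_nil (a : L) : mono a ([] : List (Op L p)) = a := rfl

@[simp] lemma mono_cons (a : L) (o : Op L p) (xs : List (Op L p)) :
    mono a (o :: xs) = mono ⁅a, o.x⁆ xs := rfl

lemma mono_append (a : L) (l₁ l₂ : List (Op L p)) : mono a (l₁ ++ l₂) = mono (mono a l₁) l₂ := by
  simp [mono, List.foldl_append]

lemma mono_add (xs : List (Op L p)) : ∀ a b : L, mono (a + b) xs = mono a xs + mono b xs := by
  induction xs with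
  | nil => intro a b; rfl
  | cons o xs ih => intro a b; simp only [mono_cons, add_lie, ih]

lemma mono_zero (xs : List (Op L p)) : mono (0 : L) xs = 0 := by
  induction xs with
  | nil => rfl
  | cons o xs ih => simp only [mono_cons, zero_lie, ih]

lemma mono_neg (xs : List (Op L p)) : ∀ a : L, mono (-a) xs = -mono a xs := by
  induction xs with
  | nil => intro a; rfl
  | cons o xs ih => intro a; simp only [mono_cons, neg_lie, ih]

lemma mono_sub (xs : List (Op L p)) (a b : L) : mono (a - b) xs = mono a xs - mono b xs := by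
  rw [sub_eq_add_neg, mono_add, mono_neg, sub_eq_add_neg]

lemma mono_mem_N {N : AddSubgroup L} (hN : ∀ x ∈ N, ∀ y : L, ⁅x, y⁆ ∈ N) (xs : List (Op L p)) :
    ∀ a ∈ N, mono a xs ∈ N := by
  induction xs with
  | nil => intro a ha; exact ha
  | cons o xs ih => intro a ha; exact ih _ (hN a ha _)

lemma mono_mem_lcs {F : Fam L p} (hF : IsGr F) {c : ℕ} (xs : List (Op L p)) (hv : Valid F xs) :
    ∀ (e : ZMod p) (a : L), a ∈ lcs F c e → mono a xs ∈ lcs F c (e + dsum xs) := by
  induction xs with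
  | nil => intro e a ha; simpa [dsum] using ha
  | cons o xs ih =>
    intro e a ha
    have h1 : ⁅a, o.x⁆ ∈ lcs F c (e + o.d) :=
      lcs_succ_le hF c _ (lie_mem_brk ha (lcs_le hF _ _ (hv o (by simp))))
    have h2 := ih (fun o' ho' => hv o' (by simp [ho'])) _ _ h1
    have e1 : e + o.d + dsum xs = e + dsum (o :: xs) := by
      simp [dsum, add_assoc]
    rw [e1] at h2
    exact h2

/-- adjacent operators commute up to a shorter monomial -/
lemma mono_swap (a : L) (pre l : List (Op L p)) (o₁ o₂ : Op L p) :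
    mono a (pre ++ o₁ :: o₂ :: l) - mono a (pre ++ o₂ :: o₁ :: l)
      = mono a (pre ++ (⟨o₁.d + o₂.d, o₁.k + o₂.k + 1, ⁅o₁.x, o₂.x⁆⟩ : Op L p) :: l) := by
  simp only [mono_append, mono_cons]
  rw [← mono_sub]
  congr 1
  rw [leibniz_lie (mono a pre) o₁.x o₂.x, ← lie_skew o₁.x ⁅mono a pre, o₂.x⁆]
  abel

lemma wt_perm {l₁ l₂ : List (Op L p)} (h : l₁.Perm l₂) : wt l₁ = wt l₂ :=
  (h.map _).sum_eq

lemma valid_perm {F : Fam L p} {l₁ l₂ : List (Op L p)} (h : l₁.Perm l₂) (hv : Valid F l₁) :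
    Valid F l₂ := fun o ho => hv o (h.mem_iff.mpr ho)

lemma wt_append (l₁ l₂ : List (Op L p)) : wt (l₁ ++ l₂) = wt l₁ + wt l₂ := by
  simp [wt]

section prime

variable [Fact p.Prime]

open scoped Pointwise in
lemma exists_sublist_sum' {α : Type*} (f : α → ZMod p) (xs : List α) (h0 : ∀ x ∈ xs, f x ≠ 0) :
    ∃ S : Finset (ZMod p), S.Nonempty ∧ (∀ z ∈ S, ∃ T : List α, T.Sublist xs ∧ (T.map f).sum = z) ∧
      min p (xs.length + 1) ≤ S.card := by
  induction xs with
  | nil =>
    refine ⟨{0}, by simp, ?_, ?_⟩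
    · intro z hz
      exact ⟨[], List.Sublist.refl _, by simpa using (Finset.mem_singleton.mp hz).symm⟩
    · simp
  | cons x xs ih =>
    obtain ⟨S, hne, hS, hc⟩ := ih (fun y hy => h0 y (by simp [hy]))
    have hfx : f x ≠ 0 := h0 x (by simp)
    classical
    refine ⟨S + {0, f x}, hne.add (by simp), ?_, ?_⟩
    · intro z hz
      obtain ⟨s, hs, t, ht, rfl⟩ := Finset.mem_add.mp hz
      obtain ⟨T, hT, hsum⟩ := hS s hs
      simp only [Finset.mem_insert, Finset.mem_singleton] at ht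
      rcases ht with rfl | rfl
      · exact ⟨T, hT.cons _, by simpa using hsum⟩
      · exact ⟨x :: T, hT.cons_cons _, by simp [hsum, add_comm]⟩
    · have hcd := ZMod.cauchy_davenport (Fact.out : p.Prime) hne
        (show ({0, f x} : Finset (ZMod p)).Nonempty by simp)
      have h2 : ({0, f x} : Finset (ZMod p)).card = 2 :=
        Finset.card_pair (Ne.symm hfx)
      rw [h2] at hcd
      simp only [List.length_cons]
      omega

lemma exists_sublist_sum {α : Type*} (f : α → ZMod p) (e : ZMod p) (xs : List α)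
    (h0 : ∀ x ∈ xs, f x ≠ 0) (hl : p - 1 ≤ xs.length) :
    ∃ T : List α, T.Sublist xs ∧ e + (T.map f).sum = 0 := by
  obtain ⟨S, -, hS, hc⟩ := exists_sublist_sum' f xs h0
  have hp : 0 < p := (Fact.out : p.Prime).pos
  have hcp : p ≤ S.card := by omega
  have huniv : S = Finset.univ := by
    apply Finset.eq_univ_of_card
    rw [ZMod.card]
    refine le_antisymm ?_ hcp
    calc S.card ≤ Fintype.card (ZMod p) := Finset.card_le_univ S
      _ = p := ZMod.card p
  obtain ⟨T, hT, hsum⟩ := hS (-e) (by rw [huniv]; exact Finset.mem_univ _)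
  exact ⟨T, hT, by rw [hsum]; ring⟩

/-- reordering a monomial changes it modulo `N` only -/
lemma perm_diff {F : Fam L p} (hF : IsGr F) {N : AddSubgroup L} {c s : ℕ}
    (hih : ∀ ys : List (Op L p), ys.length < s → Valid F ys → (p - 2) * c + 1 ≤ wt ys →
      ∀ (e : ZMod p) (a : L), a ∈ lcs F c e → mono a ys ∈ N)
    {l₁ l₂ : List (Op L p)} (h : l₁.Perm l₂) :
    ∀ pre : List (Op L p), (pre ++ l₁).length = s → Valid F (pre ++ l₁) →
      (p - 2) * c + 1 ≤ wt (pre ++ l₁) → ∀ (e : ZMod p) (a : L), a ∈ lcs F c e →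
      mono a (pre ++ l₁) - mono a (pre ++ l₂) ∈ N := by
  induction h with
  | nil => intro pre _ _ _ e a _; simp
  | @cons o l₁ l₂ _ ih =>
    intro pre hs hv hw e a ha
    have e1 : pre ++ o :: l₁ = (pre ++ [o]) ++ l₁ := by simp
    have e2 : pre ++ o :: l₂ = (pre ++ [o]) ++ l₂ := by simp
    rw [e1] at hs hv hw ⊢
    rw [e2]
    exact ih _ hs hv hw e a ha
  | swap o₁ o₂ l =>
    intro pre hs hv hw e a ha
    rw [mono_swap]
    refine hih _ ?_ ?_ ?_ e a ha
    · simp only [List.length_append, List.length_cons] at hs ⊢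
      omega
    · intro o ho
      simp only [List.mem_append, List.mem_cons] at ho
      rcases ho with ho | rfl | ho
      · exact hv o (by simp [ho])
      · exact lie_lcs_lcs hF _ _ _ _ _ _ (hv o₂ (by simp)) (hv o₁ (by simp))
      · exact hv o (by simp [ho])
    · refine hw.trans (le_of_eq ?_)
      simp only [wt_append]
      simp only [wt, List.map_cons, List.sum_cons]
      omega
  | @trans l₁ l₂ l₃ h₁ _ ih₁ ih₂ =>
    intro pre hs hv hw e a ha
    have hp := h₁.append_left pre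
    have h3 := ih₁ pre hs hv hw e a ha
    have h4 := ih₂ pre (by rw [← hp.length_eq]; exact hs) (valid_perm hp hv)
      (by rw [← wt_perm hp]; exact hw) e a ha
    have := add_mem h3 h4
    simpa using this

theorem class_key {F : Fam L p} (hF : IsGr F) (N : AddSubgroup L)
    (hN : ∀ x ∈ N, ∀ y : L, ⁅x, y⁆ ∈ N) (c : ℕ)
    (hA : ∀ {a b : ZMod p} {x y : L}, x ∈ lcs F c a → y ∈ lcs F c b → ⁅x, y⁆ ∈ N) :
    ∀ (s : ℕ) (xs : List (Op L p)), xs.length = s → Valid F xs → (p - 2) * c + 1 ≤ wt xs →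
      ∀ (e : ZMod p) (a : L), a ∈ lcs F c e → mono a xs ∈ N := by
  intro s
  induction s using Nat.strong_induction_on with
  | _ s ih =>
  intro xs hs hv hw e a ha
  have hih : ∀ ys : List (Op L p), ys.length < s → Valid F ys → (p - 2) * c + 1 ≤ wt ys →
      ∀ (e : ZMod p) (a : L), a ∈ lcs F c e → mono a ys ∈ N :=
    fun ys hys => ih _ hys ys rfl
  by_cases hex : ∃ o ∈ xs, c ≤ o.k
  · obtain ⟨o, ho, hc⟩ := hex
    obtain ⟨l₁, l₂, rfl⟩ := List.append_of_mem ho
    rw [mono_append, mono_cons]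
    apply mono_mem_N hN
    refine hA (mono_mem_lcs hF l₁ (fun o' ho' => hv o' (by simp [ho'])) e a ha)
      (lcs_anti hF hc _ (hv o ho))
  · push Not at hex
    have hle : wt xs ≤ xs.length * c := by
      have : ∀ n ∈ xs.map (fun o : Op L p => o.k + 1), n ≤ c := by
        intro n hn
        obtain ⟨o, ho, rfl⟩ := List.mem_map.mp hn
        exact hex o ho
      have h2 := List.sum_le_card_nsmul _ c this
      simpa [wt] using h2
    have hsp : p - 1 ≤ xs.length := by
      by_contra hcon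
      have h1 : xs.length ≤ p - 2 := by omega
      have h2 : xs.length * c ≤ (p - 2) * c := Nat.mul_le_mul_right c h1
      omega
    by_cases h0 : ∃ o ∈ xs, o.d = 0
    · obtain ⟨o, ho, hd⟩ := h0
      have hx0 : o.x = 0 := by
        have h1 := lcs_le hF _ _ (hv o ho)
        rw [hd] at h1
        exact hF.eq_zero h1
      obtain ⟨l₁, l₂, rfl⟩ := List.append_of_mem ho
      rw [mono_append, mono_cons, hx0, lie_zero, mono_zero]
      exact zero_mem _
    · push Not at h0
      obtain ⟨T, hT, hsum⟩ := exists_sublist_sum Op.d e xs h0 hsp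
      obtain ⟨T', hperm⟩ := hT.exists_perm_append
      have key := perm_diff hF hih hperm [] (by simpa using hs) (by simpa using hv)
        (by simpa using hw) e a ha
      simp only [List.nil_append] at key
      have h00 : mono a (T ++ T') = 0 := by
        rw [mono_append]
        have h1 := mono_mem_lcs hF T (fun o ho => hv o (hT.subset ho)) e a ha
        have h2 : e + dsum T = 0 := hsum
        rw [h2] at h1
        rw [hF.eq_zero (lcs_le hF _ _ h1), mono_zero]
      rw [h00, sub_zero] at key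
      exact key

/-- if `γ_{c+1}` is abelian modulo the ideal `N` then `γ_{(p-1)c+2} ≤ N`. -/
theorem class_lemma {F : Fam L p} (hF : IsGr F) (N : AddSubgroup L)
    (hN : ∀ x ∈ N, ∀ y : L, ⁅x, y⁆ ∈ N) (c : ℕ)
    (hA : ∀ {a b : ZMod p} {x y : L}, x ∈ lcs F c a → y ∈ lcs F c b → ⁅x, y⁆ ∈ N)
    (i : ZMod p) : lcs F ((p - 1) * c + 1) i ≤ N := by
  have hstep : ∀ (m : ℕ) (i : ZMod p) (z : L), z ∈ lcs F (c + m) i →
      ∀ xs : List (Op L p), Valid F xs → (p - 2) * c + 1 ≤ wt xs + m → mono z xs ∈ N := by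
    intro m
    induction m with
    | zero =>
      intro i z hz xs hv hw
      exact class_key hF N hN c hA _ xs rfl hv hw i z hz
    | succ m ih =>
      intro i z hz xs hv hw
      change z ∈ brk (lcs F (c + m)) F i at hz
      refine AddSubgroup.closure_induction (p := fun z _ => mono z xs ∈ N) ?_ ?_ ?_ ?_ hz
      · rintro w ⟨a, b, hab, u, hu, v, hv', rfl⟩
        have := ih a u hu ((⟨b, 0, v⟩ : Op L p) :: xs) ?_ ?_
        · simpa using this
        · intro o ho
          simp only [List.mem_cons] at ho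
          rcases ho with rfl | ho
          · exact hv'
          · exact hv o ho
        · refine hw.trans (le_of_eq ?_)
          simp only [wt, List.map_cons, List.sum_cons]
          omega
      · rw [mono_zero]; exact zero_mem _
      · intro _ _ _ _ h₁ h₂
        rw [mono_add]; exact add_mem h₁ h₂
      · intro _ _ h₁
        rw [mono_neg]; exact neg_mem h₁
  intro z hz
  have hp2 : 2 ≤ p := (Fact.out : p.Prime).two_le
  have e1 : (p - 1) * c + 1 = c + ((p - 2) * c + 1) := by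
    have : p - 1 = (p - 2) + 1 := by omega
    rw [this, add_mul, one_mul]
    omega
  rw [e1] at hz
  have := hstep _ i z hz [] (by intro o ho; simp at ho) (by simp [wt])
  simpa using this

/-- the union of a family -/
def tot (H : Fam L p) : AddSubgroup L := ⨆ i, H i

lemma mem_tot {H : Fam L p} {i : ZMod p} {x : L} (hx : x ∈ H i) : x ∈ tot H :=
  AddSubgroup.mem_iSup_of_mem i hx

lemma tot_induction {H : Fam L p} {P : L → Prop} {x : L} (hx : x ∈ tot H)
    (h1 : ∀ i, ∀ y ∈ H i, P y) (h0 : P 0) (h2 : ∀ y z, P y → P z → P (y + z)) : P x :=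
  AddSubgroup.iSup_induction (C := P) _ hx h1 h0 h2

lemma der_ideal {F : Fam L p} (hF : IsGr F) : ∀ (n : ℕ) (a b : ZMod p) (x y : L),
    x ∈ der F n a → y ∈ F b → ⁅x, y⁆ ∈ der F n (a + b) := by
  intro n
  induction n with
  | zero =>
    intro a b x y hx hy
    exact hF.lie_mem hx hy
  | succ n ih =>
    intro a b x y hx hy
    change x ∈ brk (der F n) (der F n) a at hx
    refine AddSubgroup.closure_induction
      (p := fun x _ => ⁅x, y⁆ ∈ brk (der F n) (der F n) (a + b)) ?_ ?_ ?_ ?_ hx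
    · rintro w ⟨a₁, a₂, ha, u, hu, v, hv, rfl⟩
      have e1 : ⁅⁅u, v⁆, y⁆ = ⁅u, ⁅v, y⁆⁆ + -⁅v, ⁅u, y⁆⁆ := by
        rw [leibniz_lie u v y]; abel
      rw [e1]
      refine add_mem ?_ (neg_mem ?_)
      · have h1 : ⁅v, y⁆ ∈ der F n (a₂ + b) := ih _ _ _ _ hv hy
        have h2 := lie_mem_brk hu h1
        have e2 : a₁ + (a₂ + b) = a + b := by rw [← add_assoc, ha]
        rwa [e2] at h2
      · have h1 : ⁅u, y⁆ ∈ der F n (a₁ + b) := ih _ _ _ _ hu hy
        have h2 := lie_mem_brk hv h1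
        have e2 : a₂ + (a₁ + b) = a + b := by rw [← ha]; ring
        rwa [e2] at h2
    · rw [zero_lie]; exact zero_mem _
    · intro _ _ _ _ h₁ h₂
      rw [add_lie]; exact add_mem h₁ h₂
    · intro _ _ h₁
      rw [neg_lie]; exact neg_mem h₁

/-- `xi p n = 1 + (p-1) + ... + (p-1)^(n-1)` -/
def xi (p : ℕ) : ℕ → ℕ
  | 0 => 0
  | n + 1 => (p - 1) * xi p n + 1

lemma xi_eq (p n : ℕ) : xi p n = (Finset.range n).sum (fun i => (p - 1) ^ i) := by
  induction n with
  | zero => simp [xi]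
  | succ n ih =>
    rw [Finset.sum_range_succ', xi, ih, Finset.mul_sum]
    simp [pow_succ, mul_comm]

theorem lcs_le_of_der {F : Fam L p} (hF : IsGr F) (hTop : tot F = ⊤) : ∀ (n : ℕ) (N : AddSubgroup L),
    (∀ x ∈ N, ∀ y : L, ⁅x, y⁆ ∈ N) → (∀ i, der F n i ≤ N) → ∀ i, lcs F (xi p n) i ≤ N := by
  intro n
  induction n with
  | zero =>
    intro N _ h i
    exact h i
  | succ n ih =>
    intro N hN h i
    -- `N' = N ⊔ tot (der F n)`
    let D : AddSubgroup L := tot (der F n)
    have hD : ∀ x ∈ D, ∀ y : L, ⁅x, y⁆ ∈ D := by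
      intro x hx y
      have hy : y ∈ tot F := by rw [hTop]; trivial
      refine tot_induction (P := fun x => ⁅x, y⁆ ∈ D) hx ?_ ?_ ?_
      · intro a u hu
        refine tot_induction (P := fun y => ⁅u, y⁆ ∈ D) hy ?_ ?_ ?_
        · intro b v hv
          exact mem_tot (der_ideal hF n a b u v hu hv)
        · rw [lie_zero]; exact zero_mem _
        · intro y z h₁ h₂
          rw [lie_add]; exact add_mem h₁ h₂
      · rw [zero_lie]; exact zero_mem _
      · intro y z h₁ h₂
        rw [add_lie]; exact add_mem h₁ h₂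
    have hDD : ∀ x ∈ D, ∀ y ∈ D, ⁅x, y⁆ ∈ N := by
      intro x hx y hy
      refine tot_induction (P := fun x => ⁅x, y⁆ ∈ N) hx ?_ ?_ ?_
      · intro a u hu
        refine tot_induction (P := fun y => ⁅u, y⁆ ∈ N) hy ?_ ?_ ?_
        · intro b v hv
          exact h (a + b) (lie_mem_brk hu hv)
        · rw [lie_zero]; exact zero_mem _
        · intro y z h₁ h₂
          rw [lie_add]; exact add_mem h₁ h₂
      · rw [zero_lie]; exact zero_mem _
      · intro y z h₁ h₂
        rw [add_lie]; exact add_mem h₁ h₂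
    have hN' : ∀ x ∈ N ⊔ D, ∀ y : L, ⁅x, y⁆ ∈ N ⊔ D := by
      intro x hx y
      obtain ⟨n₁, hn₁, d₁, hd₁, rfl⟩ := AddSubgroup.mem_sup.mp hx
      rw [add_lie]
      exact add_mem (AddSubgroup.mem_sup_left (hN _ hn₁ y)) (AddSubgroup.mem_sup_right (hD _ hd₁ y))
    have hle := ih (N ⊔ D) hN' (fun j => fun x hx => AddSubgroup.mem_sup_right (mem_tot hx))
    refine class_lemma hF N hN (xi p n) ?_ i
    intro a b x y hx hy
    obtain ⟨n₁, hn₁, d₁, hd₁, rfl⟩ := AddSubgroup.mem_sup.mp (hle a hx)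
    obtain ⟨n₂, hn₂, d₂, hd₂, rfl⟩ := AddSubgroup.mem_sup.mp (hle b hy)
    rw [add_lie]
    refine add_mem (hN _ hn₁ _) ?_
    rw [lie_add]
    refine add_mem ?_ (hDD _ hd₁ _ hd₂)
    rw [← lie_skew]
    exact neg_mem (hN _ hn₂ _)

/-- **Higman–Kreknin–Kostrikin** for `ZMod p`-graded Lie rings with trivial zero component. -/
theorem lcs_eq_bot {F : Fam L p} (hF : IsGr F) (hTop : tot F = ⊤) (i : ZMod p) :
    lcs F ((Finset.range (2 ^ (p - 1) - 1)).sum (fun i => (p - 1) ^ i)) i = ⊥ := by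
  rw [← xi_eq]
  refine le_antisymm ?_ bot_le
  refine lcs_le_of_der hF hTop _ ⊥ ?_ ?_ i
  · intro x hx y
    rw [AddSubgroup.mem_bot] at hx ⊢
    rw [hx, zero_lie]
  · intro j
    rw [der_eq_bot hF j]

end prime

/-- for `p = 3` the class is at most two -/
theorem lcs_two_eq_bot {F : Fam L 3} (hF : IsGr F) (i : ZMod 3) : lcs F 2 i = ⊥ := by
  refine le_antisymm ?_ bot_le
  have key : ∀ (a₁ a₂ b : ZMod 3) (x y c : L), x ∈ F a₁ → y ∈ F a₂ → c ∈ F b → ⁅⁅x, y⁆, c⁆ = 0 := by
    intro a₁ a₂ b x y c hx hy hc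
    have hz : ∀ {d : ZMod 3} {z : L}, z ∈ F d → d = 0 → z = 0 := by
      intro d z hz hd
      subst hd
      exact hF.eq_zero hz
    have hcases : ∀ a₁ a₂ b : ZMod 3, a₁ + a₂ = 0 ∨ a₁ + a₂ + b = 0 ∨ (a₂ + b = 0 ∧ a₁ + b = 0) ∨
        a₁ = 0 ∨ a₂ = 0 ∨ b = 0 := by decide
    rcases hcases a₁ a₂ b with h | h | ⟨h₁, h₂⟩ | h | h | h
    · rw [hz (hF.lie_mem hx hy) h, zero_lie]
    · exact hz (hF.lie_mem (hF.lie_mem hx hy) hc) h
    · have e1 : ⁅⁅x, y⁆, c⁆ = ⁅x, ⁅y, c⁆⁆ + -⁅y, ⁅x, c⁆⁆ := by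
        rw [leibniz_lie x y c]; abel
      rw [e1, hz (hF.lie_mem hy hc) h₁, hz (hF.lie_mem hx hc) h₂]
      simp
    · rw [hz hx h, zero_lie, zero_lie]
    · rw [hz hy h, lie_zero, zero_lie]
    · rw [hz hc h, lie_zero]
  change brk (brk F F) F i ≤ ⊥
  refine (AddSubgroup.closure_le _).2 ?_
  rintro w ⟨a, b, -, z, hz, c, hc, rfl⟩
  change z ∈ brk F F a at hz
  refine AddSubgroup.closure_induction (p := fun z _ => ⁅z, c⁆ ∈ (⊥ : AddSubgroup L)) ?_ ?_ ?_ ?_ hz
  · rintro w ⟨a₁, a₂, -, x, hx, y, hy, rfl⟩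
    rw [key a₁ a₂ b x y c hx hy hc]
    exact zero_mem _
  · rw [zero_lie]; exact zero_mem _
  · intro _ _ _ _ h₁ h₂
    rw [add_lie]; exact add_mem h₁ h₂
  · intro _ _ h₁
    rw [neg_lie]; exact neg_mem h₁

end Cfsg.Agent.Lib.HigmanLie.Class
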