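import Cfsg.Agent.Lib.HigmanLie.Class
import Cfsg.Agent.Lib.HigmanLie.AssocLie

/-!
Eigenspace decomposition over `ℤ[ω]` for an automorphism of prime order of a Lie ring,
fixed-point-free, on which `p` is invertible.
-/

set_option autoImplicit false

namespace Cfsg.Agent.Lib.HigmanLie.Eigen

open TensorProduct Polynomial
open Cfsg.Agent.Lib.HigmanLie.Graded Cfsg.Agent.Lib.HigmanLie.Class
open Cfsg.Agent.Lib.HigmanLie.AssocLie (lcsL)

variable {p : ℕ} [hp : Fact p.Prime]

variable (p) in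
/-- the ring `ℤ[ω]` -/
abbrev RR : Type := AdjoinRoot (cyclotomic p ℤ)

variable (p) in
/-- the root of unity -/
noncomputable abbrev om : RR p := AdjoinRoot.root (cyclotomic p ℤ)

lemma sum_om : ((Finset.range p).sum fun i => (om p) ^ i) = 0 := by
  have h := AdjoinRoot.eval₂_root (cyclotomic p ℤ)
  have e : cyclotomic p ℤ = ∑ i ∈ Finset.range p, X ^ i := cyclotomic_prime ℤ p
  calc ((Finset.range p).sum fun i => (om p) ^ i)
      = eval₂ (AdjoinRoot.of (cyclotomic p ℤ)) (om p) (∑ i ∈ Finset.range p, X ^ i) := by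
        simp [eval₂_finsetSum]
    _ = eval₂ (AdjoinRoot.of (cyclotomic p ℤ)) (om p) (cyclotomic p ℤ) :=
        congrArg (eval₂ (AdjoinRoot.of (cyclotomic p ℤ)) (om p)) e.symm
    _ = 0 := h

lemma om_pow : (om p) ^ p = 1 := by
  have h : ((om p) - 1) * ((Finset.range p).sum fun i => (om p) ^ i) = (om p) ^ p - 1 :=
    mul_geom_sum _ _
  rw [sum_om, mul_zero] at h
  exact (sub_eq_zero.mp h.symm)

/-- the character of `ZMod p` -/
noncomputable def ww (i : ZMod p) : RR p := (om p) ^ i.val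

lemma om_pow_mod (n : ℕ) : (om p) ^ (n % p) = (om p) ^ n := by
  conv_rhs => rw [← Nat.mod_add_div n p, pow_add, pow_mul, om_pow, one_pow, mul_one]

lemma ww_add (i j : ZMod p) : ww (i + j) = ww i * ww j := by
  unfold ww
  rw [ZMod.val_add, om_pow_mod, pow_add]

lemma ww_zero : ww (0 : ZMod p) = 1 := by
  simp [ww]

lemma sum_ww : ∑ i : ZMod p, ww i = 0 := by
  rw [← sum_om (p := p)]
  refine Finset.sum_nbij' (fun i => i.val) (fun n => (n : ZMod p)) ?_ ?_ ?_ ?_ ?_
  · intro i _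
    exact Finset.mem_range.mpr (ZMod.val_lt i)
  · intro _ _
    exact Finset.mem_univ _
  · intro i _
    simp
  · intro n hn
    exact ZMod.val_natCast_of_lt (Finset.mem_range.mp hn)
  · intro i _
    rfl

lemma sum_ww_mul {t : ZMod p} (ht : t ≠ 0) : ∑ i : ZMod p, ww (i * t) = 0 := by
  rw [← sum_ww (p := p)]
  exact Fintype.sum_equiv (Equiv.mulRight₀ t ht) _ _ (fun _ => rfl)

lemma sum_ww_zero : ∑ _i : ZMod p, ww (0 : ZMod p) = (p : RR p) := by
  simp [ww_zero, ZMod.card]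

instance instFreeRR : Module.Free ℤ (RR p) :=
  Module.Free.of_basis (AdjoinRoot.powerBasis' (cyclotomic.monic p ℤ)).basis

instance instFlatRR : Module.Flat ℤ (RR p) := inferInstance

section
variable {L : Type*} [LieRing L]

/-- the extended Lie ring -/
noncomputable instance instLR : LieRing (RR p ⊗[ℤ] L) := LieAlgebra.ExtendScalars.instLieRing ℤ (RR p) L

lemma lie_tmul (r s : RR p) (a b : L) : ⁅r ⊗ₜ[ℤ] a, s ⊗ₜ[ℤ] b⁆ = (r * s) ⊗ₜ[ℤ] ⁅a, b⁆ := rfl

lemma smul_lie_tilde (r : RR p) (x y : RR p ⊗[ℤ] L) : ⁅r • x, y⁆ = r • ⁅x, y⁆ := by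
  induction x using TensorProduct.induction_on with
  | zero => simp
  | add x x' h₁ h₂ => simp only [add_lie, smul_add, h₁, h₂]
  | tmul a b =>
    induction y using TensorProduct.induction_on with
    | zero => simp
    | add y y' h₁ h₂ => simp only [lie_add, smul_add, h₁, h₂]
    | tmul c d =>
      rw [TensorProduct.smul_tmul', lie_tmul, lie_tmul, TensorProduct.smul_tmul']
      simp [mul_assoc]

lemma lie_smul_tilde (r : RR p) (x y : RR p ⊗[ℤ] L) : ⁅x, r • y⁆ = r • ⁅x, y⁆ := by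
  rw [← lie_skew, smul_lie_tilde, ← smul_neg, lie_skew]

/-- the base-changed operator -/
noncomputable def tilde (f : L →+ L) : RR p ⊗[ℤ] L →ₗ[RR p] RR p ⊗[ℤ] L :=
  (f.toIntLinearMap).baseChange (RR p)

@[simp] lemma tilde_tmul (f : L →+ L) (r : RR p) (x : L) : tilde f (r ⊗ₜ[ℤ] x) = r ⊗ₜ[ℤ] f x := rfl

lemma tilde_lie (f : L →+ L) (hf : ∀ x y, f ⁅x, y⁆ = ⁅f x, f y⁆) (x y : RR p ⊗[ℤ] L) :
    tilde f ⁅x, y⁆ = ⁅tilde f x, tilde f y⁆ := by
  induction x using TensorProduct.induction_on with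
  | zero => simp
  | add x x' h₁ h₂ => simp only [add_lie, map_add, h₁, h₂]
  | tmul r a =>
    induction y using TensorProduct.induction_on with
    | zero => simp
    | add y y' h₁ h₂ => simp only [lie_add, map_add, h₁, h₂]
    | tmul s b =>
      rw [lie_tmul, tilde_tmul, tilde_tmul, tilde_tmul, lie_tmul, hf]

lemma tilde_iterate_eq (f : L →+ L) {n : ℕ} (hn : ∀ x, f^[n] x = x) (x : RR p ⊗[ℤ] L) :
    (tilde f)^[n] x = x := by
  induction x using TensorProduct.induction_on with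
  | zero => exact iterate_map_zero _ _
  | add x y h₁ h₂ => rw [iterate_map_add, h₁, h₂]
  | tmul r a =>
    have h : ∀ k : ℕ, (tilde f)^[k] (r ⊗ₜ[ℤ] a) = r ⊗ₜ[ℤ] (f^[k] a) := by
      intro k
      induction k with
      | zero => rfl
      | succ k ih =>
        rw [Function.iterate_succ_apply', ih, tilde_tmul, ← Function.iterate_succ_apply' f]
    rw [h, hn]

/-- the eigen-family of the extended operator -/
noncomputable def eig (f : L →+ L) : Fam (RR p ⊗[ℤ] L) p := fun i =>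
  { carrier := {x | tilde f x = ww i • x}
    add_mem' := by
      intro a b ha hb
      simp only [Set.mem_setOf_eq] at ha hb ⊢
      rw [map_add, ha, hb, smul_add]
    zero_mem' := by
      simp
    neg_mem' := by
      intro a ha
      simp only [Set.mem_setOf_eq] at ha ⊢
      rw [map_neg, ha, smul_neg] }

lemma mem_eig {f : L →+ L} {i : ZMod p} {x : RR p ⊗[ℤ] L} : x ∈ eig f i ↔ tilde f x = ww i • x :=
  Iff.rfl

lemma isGr_eig (f : L →+ L) (hf : ∀ x y, f ⁅x, y⁆ = ⁅f x, f y⁆) (hfix : ∀ x, f x = x → x = 0) :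
    IsGr (eig (p := p) f) where
  lie_mem := by
    intro a b x y hx hy
    rw [mem_eig] at hx hy ⊢
    rw [tilde_lie f hf, hx, hy, smul_lie_tilde, lie_smul_tilde, ww_add, mul_smul]
  zero := by
    refine le_antisymm ?_ bot_le
    intro x hx
    rw [mem_eig, ww_zero, one_smul] at hx
    -- injectivity of `tilde f - 1`
    let g : L →ₗ[ℤ] L := f.toIntLinearMap - LinearMap.id
    have hinj : Function.Injective g := by
      rw [injective_iff_map_eq_zero]
      intro z hz
      apply hfix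
      have : f z - z = 0 := hz
      exact sub_eq_zero.mp this
    have hinj2 := Module.Flat.lTensor_preserves_injective_linearMap (M := RR p) g hinj
    have h0 : g.lTensor (RR p) x = 0 := by
      have e : ∀ z : RR p ⊗[ℤ] L, g.lTensor (RR p) z = tilde f z - z := by
        intro z
        induction z using TensorProduct.induction_on with
        | zero => simp
        | add z z' h₁ h₂ =>
          simp only [map_add, h₁, h₂]
          abel
        | tmul r a =>
          change r ⊗ₜ[ℤ] (f a - a) = r ⊗ₜ[ℤ] f a - r ⊗ₜ[ℤ] a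
          rw [TensorProduct.tmul_sub]
      rw [e, hx, sub_self]
    have := hinj2 (h0.trans (map_zero _).symm)
    rw [this]
    exact zero_mem _

lemma iter_mod (T : RR p ⊗[ℤ] L →ₗ[RR p] RR p ⊗[ℤ] L) (hT : ∀ x, T^[p] x = x) (n : ℕ)
    (x : RR p ⊗[ℤ] L) : T^[n % p] x = T^[n] x := by
  have hid : T^[p] = id := funext hT
  conv_rhs => rw [← Nat.mod_add_div n p, Function.iterate_add_apply, Function.iterate_mul, hid]
  simp

/-- the components -/
noncomputable def comp (T : RR p ⊗[ℤ] L →ₗ[RR p] RR p ⊗[ℤ] L) (x : RR p ⊗[ℤ] L) (i : ZMod p) :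
    RR p ⊗[ℤ] L := ∑ j : ZMod p, ww (-(i * j)) • T^[j.val] x

lemma T_iter_succ (T : RR p ⊗[ℤ] L →ₗ[RR p] RR p ⊗[ℤ] L) (hT : ∀ x, T^[p] x = x) (j : ZMod p)
    (x : RR p ⊗[ℤ] L) : T (T^[j.val] x) = T^[(j + 1).val] x := by
  rw [ZMod.val_add, iter_mod T hT, ← Function.iterate_succ_apply' T, ZMod.val_one_eq_one_mod,
    Nat.mod_eq_of_lt (Fact.out : p.Prime).one_lt]

lemma comp_mem (T : RR p ⊗[ℤ] L →ₗ[RR p] RR p ⊗[ℤ] L) (hT : ∀ x, T^[p] x = x)
    (x : RR p ⊗[ℤ] L) (i : ZMod p) : T (comp T x i) = ww i • comp T x i := by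
  unfold comp
  rw [map_sum, Finset.smul_sum]
  simp only [map_smul, T_iter_succ T hT]
  refine (Fintype.sum_equiv (Equiv.addRight (1 : ZMod p)) _ _ ?_)
  intro j
  simp only [Equiv.coe_addRight, smul_smul]
  rw [← ww_add]
  congr 2
  ring

lemma sum_comp (T : RR p ⊗[ℤ] L →ₗ[RR p] RR p ⊗[ℤ] L) (x : RR p ⊗[ℤ] L) :
    ∑ i : ZMod p, comp T x i = p • x := by
  unfold comp
  rw [Finset.sum_comm]
  simp only [← Finset.sum_smul]
  rw [Finset.sum_eq_single (0 : ZMod p)]
  · have e : ∑ i : ZMod p, ww (-(i * (0 : ZMod p))) = (p : RR p) := by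
      simp only [mul_zero, neg_zero]
      exact sum_ww_zero
    rw [e]
    simp only [ZMod.val_zero, Function.iterate_zero, id_eq]
    exact Nat.cast_smul_eq_nsmul _ _ _
  · intro j _ hj
    have e : ∑ i : ZMod p, ww (-(i * j)) = 0 := by
      have := sum_ww_mul (p := p) (t := -j) (neg_ne_zero.mpr hj)
      simpa [mul_neg] using this
    rw [e, zero_smul]
  · intro h
    exact absurd (Finset.mem_univ _) h

lemma tot_eig_eq_top (f : L →+ L) (hn : ∀ x, f^[p] x = x) (m : ℕ) (hm : ∀ x : L, m • x = 0)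
    (hc : Nat.Coprime m p) : tot (eig (p := p) f) = ⊤ := by
  refine eq_top_iff.mpr fun x _ => ?_
  have hT : ∀ x : RR p ⊗[ℤ] L, (tilde f)^[p] x = x := tilde_iterate_eq f hn
  have hmx : ∀ x : RR p ⊗[ℤ] L, m • x = 0 := by
    intro x
    induction x using TensorProduct.induction_on with
    | zero => simp
    | add x y h₁ h₂ => rw [smul_add, h₁, h₂, add_zero]
    | tmul r a => rw [← TensorProduct.tmul_smul, hm, TensorProduct.tmul_zero]
  have hpx : ∀ x : RR p ⊗[ℤ] L, p • x ∈ tot (eig (p := p) f) := by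
    intro x
    rw [← sum_comp (tilde f) x]
    exact sum_mem fun i _ => mem_tot (i := i) (comp_mem (tilde f) hT x i)
  have hg : ((m.gcd p : ℕ) : ℤ) = (m : ℤ) * m.gcdA p + (p : ℤ) * m.gcdB p := Nat.gcd_eq_gcd_ab m p
  rw [hc.gcd_eq_one, Nat.cast_one] at hg
  have hx : x = (m.gcdB p) • (p • x) := by
    calc x = (1 : ℤ) • x := (one_smul _ _).symm
      _ = ((m : ℤ) * m.gcdA p + (p : ℤ) * m.gcdB p) • x := by rw [hg]
      _ = (m.gcdA p) • (m • x) + (m.gcdB p) • (p • x) := by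
        rw [add_smul, mul_comm (m : ℤ), mul_comm (p : ℤ), mul_smul, mul_smul, natCast_zsmul, natCast_zsmul]
      _ = (m.gcdB p) • (p • x) := by rw [hmx, smul_zero, zero_add]
  rw [hx]
  exact zsmul_mem (hpx x) _

lemma emb_injective : Function.Injective (fun x : L => (1 : RR p) ⊗ₜ[ℤ] x) := by
  have hdeg : (cyclotomic p ℤ).degree ≠ 0 := by
    rw [degree_cyclotomic]
    have : (p.totient : WithBot ℕ) ≠ 0 := by
      have hp' : 0 < p.totient := Nat.totient_pos.mpr (Fact.out : p.Prime).pos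
      exact_mod_cast hp'.ne'
    exact this
  haveI : Nontrivial (RR p) := AdjoinRoot.nontrivial _ hdeg
  exact Module.FaithfullyFlat.tensorProduct_mk_injective (A := ℤ) (B := RR p) L

lemma emb_lcs (f : L →+ L) (hTop : tot (eig (p := p) f) = ⊤) (n : ℕ) :
    ∀ x ∈ lcsL L n, (1 : RR p) ⊗ₜ[ℤ] x ∈ tot (lcs (eig (p := p) f) n) := by
  induction n with
  | zero =>
    intro x _
    change _ ∈ tot (eig (p := p) f)
    rw [hTop]
    trivial
  | succ n ih =>
    intro x hx
    refine AddSubgroup.closure_induction (p := fun x _ => (1 : RR p) ⊗ₜ[ℤ] x ∈ tot (lcs (eig (p := p) f) (n + 1)))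
      ?_ ?_ ?_ ?_ hx
    · rintro _ ⟨a, ha, b, rfl⟩
      have e : (1 : RR p) ⊗ₜ[ℤ] ⁅a, b⁆ = ⁅(1 : RR p) ⊗ₜ[ℤ] a, (1 : RR p) ⊗ₜ[ℤ] b⁆ := by
        rw [lie_tmul, one_mul]
      rw [e]
      have h1 := ih a ha
      have h2 : (1 : RR p) ⊗ₜ[ℤ] b ∈ tot (eig (p := p) f) := by rw [hTop]; trivial
      refine tot_induction (P := fun u => ⁅u, (1 : RR p) ⊗ₜ[ℤ] b⁆ ∈ tot (lcs (eig (p := p) f) (n + 1))) h1 ?_ ?_ ?_
      · intro i u hu
        refine tot_induction (P := fun v => ⁅u, v⁆ ∈ tot (lcs (eig (p := p) f) (n + 1))) h2 ?_ ?_ ?_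
        · intro j v hv
          exact mem_tot (i := i + j) (lie_mem_brk hu hv)
        · rw [lie_zero]; exact zero_mem _
        · intro y z h₁ h₂
          rw [lie_add]; exact add_mem h₁ h₂
      · rw [zero_lie]; exact zero_mem _
      · intro y z h₁ h₂
        rw [add_lie]; exact add_mem h₁ h₂
    · rw [TensorProduct.tmul_zero]; exact zero_mem _
    · intro _ _ _ _ h₁ h₂
      rw [TensorProduct.tmul_add]; exact add_mem h₁ h₂
    · intro _ _ h₁
      rw [TensorProduct.tmul_neg]; exact neg_mem h₁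

/-- the class bound for Lie rings with a fixed-point-free automorphism of prime order -/
theorem lcsL_eq_bot (f : L →+ L) (hf : ∀ x y, f ⁅x, y⁆ = ⁅f x, f y⁆) (hfix : ∀ x, f x = x → x = 0)
    (hn : ∀ x, f^[p] x = x) (m : ℕ) (hm : ∀ x : L, m • x = 0) (hc : Nat.Coprime m p) :
    lcsL L ((Finset.range (2 ^ (p - 1) - 1)).sum fun i => (p - 1) ^ i) = ⊥ := by
  have hTop := tot_eig_eq_top (p := p) f hn m hm hc
  have hGr := isGr_eig (p := p) f hf hfix
  refine eq_bot_iff.mpr fun x hx => ?_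
  have h1 := emb_lcs (p := p) f hTop _ x hx
  have h2 : tot (lcs (eig (p := p) f) ((Finset.range (2 ^ (p - 1) - 1)).sum fun i => (p - 1) ^ i)) = ⊥ := by
    unfold tot
    exact iSup_eq_bot.mpr fun i => lcs_eq_bot hGr hTop i
  rw [h2, AddSubgroup.mem_bot] at h1
  rw [AddSubgroup.mem_bot]
  apply emb_injective (p := p)
  simpa using h1

theorem lcsL_two_eq_bot (hp3 : p = 3) (f : L →+ L) (hf : ∀ x y, f ⁅x, y⁆ = ⁅f x, f y⁆) (hfix : ∀ x, f x = x → x = 0)
    (hn : ∀ x, f^[p] x = x) (m : ℕ) (hm : ∀ x : L, m • x = 0) (hc : Nat.Coprime m p) :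
    lcsL L 2 = ⊥ := by
  subst hp3
  have hTop := tot_eig_eq_top (p := 3) f hn m hm hc
  have hGr := isGr_eig (p := 3) f hf hfix
  refine eq_bot_iff.mpr fun x hx => ?_
  have h1 := emb_lcs (p := 3) f hTop _ x hx
  have h2 : tot (lcs (eig (p := 3) f) 2) = ⊥ := by
    unfold tot
    exact iSup_eq_bot.mpr fun i => lcs_two_eq_bot hGr i
  rw [h2, AddSubgroup.mem_bot] at h1
  rw [AddSubgroup.mem_bot]
  apply emb_injective (p := 3)
  simpa using h1

end

end Cfsg.Agent.Lib.HigmanLie.Eigen
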