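import Mathlib

/-!
Graded Lie rings over `ZMod p` with trivial zero component: Kreknin's theorem
(derived length at most `2^(p-1) - 1`) and Higman's step (class at most `(p-1) c + 1`).
Everything is phrased with families of additive subgroups indexed by `ZMod p`.
-/

set_option autoImplicit false

namespace Cfsg.Agent.Lib.HigmanLie.Graded

variable {L : Type*} [LieRing L] {p : ℕ}

/-- families of additive subgroups indexed by `ZMod p` -/
abbrev Fam (L : Type*) [LieRing L] (p : ℕ) := ZMod p → AddSubgroup L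

/-- the bracket of two families -/
def brk (H K : Fam L p) : Fam L p := fun i =>
  AddSubgroup.closure {z | ∃ a b, a + b = i ∧ ∃ x ∈ H a, ∃ y ∈ K b, z = ⁅x, y⁆}

lemma lie_mem_brk {H K : Fam L p} {a b : ZMod p} {x y : L} (hx : x ∈ H a) (hy : y ∈ K b) :
    ⁅x, y⁆ ∈ brk H K (a + b) :=
  AddSubgroup.subset_closure ⟨a, b, rfl, x, hx, y, hy, rfl⟩

/-- derived families -/
def der (H : Fam L p) : ℕ → Fam L p
  | 0 => H
  | n + 1 => brk (der H n) (der H n)

/-- lower central families -/
def lcs (H : Fam L p) : ℕ → Fam L p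
  | 0 => H
  | n + 1 => brk (lcs H n) H

/-- graded subrings with zero component trivial -/
structure IsGr (F : Fam L p) : Prop where
  lie_mem : ∀ {a b : ZMod p} {x y : L}, x ∈ F a → y ∈ F b → ⁅x, y⁆ ∈ F (a + b)
  zero : F 0 = ⊥

lemma IsGr.eq_zero {F : Fam L p} (hF : IsGr F) {x : L} (hx : x ∈ F 0) : x = 0 := by
  rw [hF.zero] at hx
  simpa using hx

lemma IsGr.brk_le {F : Fam L p} (hF : IsGr F) (i : ZMod p) : brk F F i ≤ F i := by
  refine (AddSubgroup.closure_le _).2 ?_
  rintro z ⟨a, b, rfl, x, hx, y, hy, rfl⟩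
  exact hF.lie_mem hx hy

lemma IsGr.brk {F : Fam L p} (hF : IsGr F) : IsGr (brk F F) where
  lie_mem := fun hx hy => lie_mem_brk (hF.brk_le _ hx) (hF.brk_le _ hy)
  zero := by
    refine le_antisymm ?_ bot_le
    rw [← hF.zero]
    exact hF.brk_le 0

lemma IsGr.der {F : Fam L p} (hF : IsGr F) : ∀ n, IsGr (der F n)
  | 0 => hF
  | n + 1 => (IsGr.der hF n).brk

lemma der_le {F : Fam L p} (hF : IsGr F) : ∀ n i, der F n i ≤ F i
  | 0, _ => le_rfl
  | n + 1, i => ((IsGr.der hF n).brk_le i).trans (der_le hF n i)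

lemma der_add (H : Fam L p) (m : ℕ) : ∀ n, der (der H m) n = der H (m + n)
  | 0 => rfl
  | n + 1 => by
    change brk (der (der H m) n) (der (der H m) n) = brk (der H (m + n)) (der H (m + n))
    rw [der_add H m n]

/-- the Lie subring generated by the components of degree `> k` -/
inductive InR (H : Fam L p) (k : ℕ) : ZMod p → L → Prop
  | gen {d : ZMod p} {x : L} : k < d.val → x ∈ H d → InR H k d x
  | br {a b : ZMod p} {x y : L} : InR H k a x → InR H k b y → InR H k (a + b) ⁅x, y⁆
  | add {a : ZMod p} {x y : L} : InR H k a x → InR H k a y → InR H k a (x + y)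
  | zero {a : ZMod p} : InR H k a 0
  | neg {a : ZMod p} {x : L} : InR H k a x → InR H k a (-x)

lemma InR.mem {H : Fam L p} (hH : IsGr H) {k : ℕ} {a : ZMod p} {x : L} (h : InR H k a x) :
    x ∈ H a := by
  induction h with
  | gen _ hx => exact hx
  | br _ _ h₁ h₂ => exact hH.lie_mem h₁ h₂
  | add _ _ h₁ h₂ => exact (H _).add_mem h₁ h₂
  | zero => exact (H _).zero_mem
  | neg _ h₁ => exact (H _).neg_mem h₁

lemma InR.congr {H : Fam L p} {k : ℕ} {a b : ZMod p} {x : L} (h : InR H k a x) (e : a = b) :
    InR H k b x := e ▸ h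

section prime
variable [Fact p.Prime]

/-- the key computation in Kreknin's theorem -/
lemma lie_inR {H : Fam L p} (hH : IsGr H) {k : ℕ} (hkp : k + 1 < p) {b : ZMod p} {v : L}
    (hv : InR H k b v) :
    ∀ (a : ZMod p) (u : L), u ∈ H a → a + b = ((k + 1 : ℕ) : ZMod p) →
      InR H (k + 1) ((k + 1 : ℕ) : ZMod p) ⁅u, v⁆ := by
  induction hv with
  | @gen d x hd hx =>
    intro a u hu hab
    by_cases hd' : d.val = k + 1
    · have hdk : d = ((k + 1 : ℕ) : ZMod p) := by
        rw [← hd']; simp
      have ha0 : a = 0 := by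
        rw [hdk] at hab
        exact add_eq_right.mp hab
      subst ha0
      rw [hH.eq_zero hu, zero_lie]
      exact InR.zero
    · have hd2 : k + 1 < d.val := by omega
      have hvald : d.val < p := ZMod.val_lt d
      have hvala : a.val < p := ZMod.val_lt a
      have h1 : (a.val + d.val) % p = k + 1 := by
        rw [← ZMod.val_add, hab, ZMod.val_natCast, Nat.mod_eq_of_lt hkp]
      have h2 : k + 1 < a.val := by
        have h3 : a.val + d.val < 2 * p := by omega
        by_contra hcon
        have h4 : a.val + d.val = (a.val + d.val) % p + p * ((a.val + d.val) / p) :=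
          (Nat.mod_add_div _ _).symm
        rw [h1] at h4
        have h5 : (a.val + d.val) / p < 2 := by
          apply Nat.div_lt_of_lt_mul; omega
        interval_cases hq : (a.val + d.val) / p
        · omega
        · omega
      exact (InR.br (InR.gen h2 hu) (InR.gen hd2 hx)).congr hab
  | @br c e x y hx hy ihx ihy =>
    intro a u hu hab
    have hxm := InR.mem hH hx
    have hym := InR.mem hH hy
    have e1 : ⁅u, ⁅x, y⁆⁆ = ⁅⁅u, x⁆, y⁆ + -⁅⁅u, y⁆, x⁆ := by
      rw [leibniz_lie u x y, lie_skew]
    rw [e1]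
    refine InR.add (ihy (a + c) _ (hH.lie_mem hu hxm) ?_) (InR.neg (ihx (a + e) _ (hH.lie_mem hu hym) ?_))
    · rw [add_assoc, hab]
    · rw [add_right_comm, add_assoc, hab]
  | add _ _ ihx ihy =>
    intro a u hu hab
    rw [lie_add]
    exact InR.add (ihx a u hu hab) (ihy a u hu hab)
  | zero =>
    intro a u _ _
    rw [lie_zero]
    exact InR.zero
  | neg _ ihx =>
    intro a u hu hab
    rw [lie_neg]
    exact InR.neg (ihx a u hu hab)

/-- Kreknin's inclusion -/
theorem der_inR : ∀ k, k < p → ∀ (H : Fam L p), IsGr H → ∀ (b : ZMod p) (x : L),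
    x ∈ der H (2 ^ k - 1) b → InR H k b x := by
  intro k
  induction k with
  | zero =>
    intro _ H hH b x hx
    change x ∈ H b at hx
    by_cases hb : b = 0
    · subst hb
      rw [hH.eq_zero hx]
      exact InR.zero
    · refine InR.gen ?_ hx
      exact Nat.pos_of_ne_zero (by simpa [ZMod.val_eq_zero] using hb)
  | succ k ih =>
    intro hkp H hH b x hx
    have hk' : k < p := by omega
    have e : 2 ^ (k + 1) - 1 = 2 ^ k + (2 ^ k - 1) := by
      have : 1 ≤ 2 ^ k := Nat.one_le_two_pow
      rw [pow_succ]; omega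
    rw [e, ← der_add] at hx
    have hK : IsGr (der H (2 ^ k)) := IsGr.der hH _
    have h1 := ih hk' _ hK b x hx
    -- transfer
    have h2 : ∀ {c : ZMod p} {y : L}, InR (der H (2 ^ k)) k c y → InR H (k + 1) c y := by
      intro c y hy
      induction hy with
      | @gen d z hd hz =>
        by_cases hd' : d.val = k + 1
        · have hdk : d = ((k + 1 : ℕ) : ZMod p) := by
            rw [← hd']; simp
          have e2 : 2 ^ k = (2 ^ k - 1) + 1 := by
            have : 1 ≤ 2 ^ k := Nat.one_le_two_pow
            omega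
          rw [e2] at hz
          change z ∈ brk (der H (2 ^ k - 1)) (der H (2 ^ k - 1)) d at hz
          subst hdk
          refine AddSubgroup.closure_induction (p := fun z _ => InR H (k + 1) _ z) ?_ ?_ ?_ ?_ hz
          · rintro w ⟨a, c, hac, u, hu, v, hv, rfl⟩
            exact lie_inR hH hkp (ih hk' H hH c v hv) a u (der_le hH _ _ hu) hac
          · exact InR.zero
          · intro _ _ _ _ h₁ h₂
            exact InR.add h₁ h₂
          · intro _ _ h₁
            exact InR.neg h₁
        · exact InR.gen (by omega) (der_le hH _ _ hz)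
      | br _ _ h₁ h₂ => exact InR.br h₁ h₂
      | add _ _ h₁ h₂ => exact InR.add h₁ h₂
      | zero => exact InR.zero
      | neg _ h₁ => exact InR.neg h₁
    exact h2 h1

lemma InR.eq_zero {H : Fam L p} {b : ZMod p} {x : L} (h : InR H (p - 1) b x) : x = 0 := by
  induction h with
  | @gen d y hd _ =>
    have := ZMod.val_lt d
    omega
  | br _ _ h₁ h₂ => rw [h₁, h₂, lie_zero]
  | add _ _ h₁ h₂ => rw [h₁, h₂, add_zero]
  | zero => rfl
  | neg _ h₁ => rw [h₁, neg_zero]

/-- **Kreknin's theorem** for prime modulus: derived length at most `2^(p-1) - 1`. -/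
theorem der_eq_bot {H : Fam L p} (hH : IsGr H) (b : ZMod p) : der H (2 ^ (p - 1) - 1) b = ⊥ := by
  refine le_antisymm ?_ bot_le
  intro x hx
  have hp : 0 < p := (Fact.out : p.Prime).pos
  have := der_inR (p - 1) (by omega) H hH b x hx
  rw [InR.eq_zero this]
  exact zero_mem _

end prime

end Cfsg.Agent.Lib.HigmanLie.Graded
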